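import Mathlib
import Cfsg.Agent.Lib.Helper48.Ami.TopDefs

set_option autoImplicit false

namespace Cfsg.Agent.Lib.Helper59.Ami

open Cfsg.Agent.Lib.Lead.Ami Cfsg.Agent.Lib.Helper48.AmiTop

universe u

/-- **[MCORE]** from the division-ring core `PkgZD`. -/
theorem pkgMCore_of (hZD : PkgZD.{u}) : PkgMCore.{u} := by
  intro D _ _ a x c p hp h7 haa hb3 hx5 hx1 hkk hak hca hcx hcp hc1
  -- `1 + x + x² + x³ + x⁴ = 0`
  have h1 : 1 + x + x ^ 2 + x ^ 3 + x ^ 4 = 0 := by
    have h := mul_geom_sum x 5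
    rw [hx5, sub_self] at h
    rcases mul_eq_zero.1 h with h | h
    · exact absurd (sub_eq_zero.1 h) hx1
    · simpa [Finset.sum_range_succ] using h
  have e2 : x * x ^ 4 = 1 := by rw [← pow_succ', hx5]
  have e3 : x ^ 4 * x = 1 := by rw [← pow_succ, hx5]
  -- `a⁻¹ = -a`
  have hainv : a⁻¹ = -a := by
    apply inv_eq_of_mul_eq_one_right
    rw [mul_neg, haa, neg_neg]
  -- `u = a x` has `u³ = 1`
  have hu3 : (a * x) ^ 3 = 1 := by
    rw [hainv, neg_mul, Odd.neg_pow (by decide)] at hb3
    exact neg_injective hb3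
  have hu1 : a * x ≠ 1 := by
    intro h
    have h2 : x = -a := by
      have h3 : a * (a * x) = a := by rw [h, mul_one]
      rw [← mul_assoc, haa, neg_one_mul] at h3
      rw [← h3, neg_neg]
    have h4 : x ^ 2 = -1 := by rw [h2, neg_sq, pow_two, haa]
    have h5 : x ^ 4 = 1 := by
      have : x ^ 4 = (x ^ 2) ^ 2 := by rw [← pow_mul]
      rw [this, h4, neg_one_sq]
    apply hx1
    have h6 : x ^ 5 = x := by rw [pow_succ, h5, one_mul]
    rw [← h6, hx5]
  have hu : a * x * (a * x) + a * x + 1 = 0 := by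
    have h := mul_geom_sum (a * x) 3
    rw [hu3, sub_self] at h
    rcases mul_eq_zero.1 h with h | h
    · exact absurd (sub_eq_zero.1 h) hu1
    · have h2 : (1 : D) + a * x + (a * x) ^ 2 = 0 := by
        simpa [Finset.sum_range_succ] using h
      rw [pow_two] at h2
      rw [← h2]; abel
  -- `x⁴ = -a - a x a`
  have hx4 : x ^ 4 = -a - a * x * a := by
    have h2 : (a * x * (a * x) + a * x + 1) * x ^ 4 = 0 := by rw [hu, zero_mul]
    have h3 : (a * x * (a * x) + a * x + 1) * x ^ 4
        = a * x * a * (x * x ^ 4) + a * (x * x ^ 4) + x ^ 4 := by noncomm_ring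
    rw [h3, e2, mul_one, mul_one] at h2
    rw [← sub_eq_zero, ← h2]; abel
  -- `t = x + x⁴` commutes with `a`
  have hta : Commute (x + x ^ 4) a := by
    rw [hx4]
    show (x + (-a - a * x * a)) * a = a * (x + (-a - a * x * a))
    have h2 : (x + (-a - a * x * a)) * a = x * a - a * a - a * x * (a * a) := by noncomm_ring
    have h3 : a * (x + (-a - a * x * a)) = a * x - a * a - a * a * x * a := by noncomm_ring
    rw [h2, h3, haa]
    noncomm_ring
  have htx : Commute (x + x ^ 4) x :=
    (Commute.refl x).add_left ((Commute.refl x).pow_left 4)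
  -- `t² + t - 1 = 0`
  have ht : (x + x ^ 4) * (x + x ^ 4) + (x + x ^ 4) - 1 = 0 := by
    have e1 : x * x = x ^ 2 := (pow_two x).symm
    have e4 : x ^ 4 * x ^ 4 = x ^ 3 := by
      have : x ^ 4 * x ^ 4 = x ^ 5 * x ^ 3 := by rw [← pow_add, ← pow_add]
      rw [this, hx5, one_mul]
    rw [mul_add, add_mul, add_mul, e1, e2, e3, e4, ← h1]
    abel
  obtain ⟨s, hs⟩ : ∃ s : D, s = (x + x ^ 4) + (x + x ^ 4) + 1 := ⟨_, rfl⟩
  have hss : s * s = 5 := by
    obtain ⟨t, ht'⟩ : ∃ t : D, t = x + x ^ 4 := ⟨_, rfl⟩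
    rw [← ht'] at ht hs
    have htt : t * t = 1 - t := by
      rw [← sub_eq_zero, ← ht]; abel
    have h2 : (t + t + 1) * (t + t + 1)
        = t * t + t * t + t * t + t * t + t + t + t + t + 1 := by
      simp only [add_mul, mul_add, mul_one, one_mul]; abel
    have h3 : (1 - t) + (1 - t) + (1 - t) + (1 - t) + t + t + t + t + 1
        = (1 + 1 + 1 + 1 + 1 : D) := by abel
    rw [hs, h2, htt, h3]; norm_num
  have hsa : Commute s a := by
    rw [hs]; exact (hta.add_left hta).add_left (Commute.one_left a)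
  have hsx : Commute s x := by
    rw [hs]; exact (htx.add_left htx).add_left (Commute.one_left x)
  have hct : Commute c (x + x ^ 4) := hcx.add_right (hcx.pow_right 4)
  have hcs : Commute c s := by
    rw [hs]; exact (hct.add_right hct).add_right (Commute.one_right c)
  have hck : Commute c (x ^ 2 * a * x ^ 3 * a * x ^ 2) :=
    ((((hcx.pow_right 2).mul_right hca).mul_right (hcx.pow_right 3)).mul_right hca).mul_right
      (hcx.pow_right 2)
  have hsk : Commute s (x ^ 2 * a * x ^ 3 * a * x ^ 2) :=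
    ((((hsx.pow_right 2).mul_right hsa).mul_right (hsx.pow_right 3)).mul_right hsa).mul_right
      (hsx.pow_right 2)
  exact hZD D a (x ^ 2 * a * x ^ 3 * a * x ^ 2) c s p hp h7 haa hkk hak hss hca hck hsa hsk hcs
    hcp hc1

end Cfsg.Agent.Lib.Helper59.Ami
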