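import Mathlib
import Cfsg.Agent.Lib.Helper48.Ami.TopDefs

set_option autoImplicit false

namespace Cfsg.Agent.Lib.Helper59.Ami

open Cfsg.Agent.Lib.Helper48.AmiTop

universe u

section

variable {D : Type u} [DivisionRing D]

/-- the abstract final step: two commuting "quaternion" families with a common square -/
theorem oct_final [CharZero D] (s r j : D) (hss : s * s = 5) (hrr : r * r = 2)
    (hsr : s * r = -(r * s)) (hjj : j * j = -5) (hsj : s * j = j * s) (hrj : r * j = j * r) :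
    False := by
  obtain ⟨Z, hZ⟩ : ∃ Z : D, Z = s + s * r := ⟨_, rfl⟩
  have hZj : Z * j = j * Z := by
    rw [hZ, add_mul, mul_add, hsj, mul_assoc, hrj, ← mul_assoc, hsj, mul_assoc]
  have h5r : r * 5 = 5 * r := by noncomm_ring
  have e2 : s * r * s = -(5 * r) := by
    rw [hsr, neg_mul, mul_assoc, hss, h5r]
  have e3 : s * r * (s * r) = -10 := by
    have h : s * r * (s * r) = (s * r * s) * r := by noncomm_ring
    rw [h, e2, neg_mul, mul_assoc, hrr]; norm_num
  have hZZ : Z * Z = -5 := by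
    have e1 : Z * Z = s * s + s * s * r + s * r * s + s * r * (s * r) := by
      rw [hZ]; noncomm_ring
    rw [e1, e2, e3, hss]
    have e4 : (5 : D) + 5 * r + -(5 * r) + -10 = 5 + -10 := by abel
    rw [e4]; norm_num
  have hzero : (Z - j) * (Z + j) = 0 := by
    have e1 : (Z - j) * (Z + j) = Z * Z + Z * j - j * Z - j * j := by noncomm_ring
    rw [e1, hZZ, hjj, hZj]; noncomm_ring
  have hsZ : s * Z = Z * s := by
    rcases mul_eq_zero.1 hzero with h | h
    · rw [sub_eq_zero.1 h, hsj]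
    · rw [eq_neg_of_add_eq_zero_left h, mul_neg, neg_mul, hsj]
  have h1 : s * Z = 5 + 5 * r := by
    rw [hZ, mul_add, ← mul_assoc, hss]
  have h2 : Z * s = 5 - 5 * r := by
    rw [hZ, add_mul, hss, e2]; noncomm_ring
  rw [h1, h2] at hsZ
  have h3 : (10 : D) * r = 0 := by
    have : (10 : D) * r = (5 + 5 * r) - (5 - 5 * r) := by noncomm_ring
    rw [this, hsZ, sub_self]
  have h4 : r = 0 := by
    rcases mul_eq_zero.1 h3 with h | h
    · norm_num at h
    · exact h
  rw [h4, mul_zero] at hrr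
  norm_num at hrr

/-- identities in `x` alone, through polynomial evaluation -/
theorem oct_poly (x : D) (h1 : 1 + x + x ^ 2 + x ^ 3 + x ^ 4 = 0) (P Q : Polynomial ℤ)
    (h : P = Q * (1 + Polynomial.X + Polynomial.X ^ 2 + Polynomial.X ^ 3 + Polynomial.X ^ 4)) :
    Polynomial.aeval x P = 0 := by
  rw [h, map_mul]
  have h2 : Polynomial.aeval x
      (1 + Polynomial.X + Polynomial.X ^ 2 + Polynomial.X ^ 3 + Polynomial.X ^ 4 :
        Polynomial ℤ) = 0 := by
    simp only [map_add, map_pow, map_one, Polynomial.aeval_X]; exact h1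
  rw [h2, mul_zero]

end

open Polynomial in
/-- **[OCT]** -/
theorem pkgOct : PkgOct.{u} := by
  intro D _ _ x y hx5 hx1 hyx hy4
  have h1 : 1 + x + x ^ 2 + x ^ 3 + x ^ 4 = 0 := by
    have h := mul_geom_sum x 5
    rw [hx5, sub_self] at h
    rcases mul_eq_zero.1 h with h | h
    · exact absurd (sub_eq_zero.1 h) hx1
    · simpa [Finset.sum_range_succ] using h
  have hyxk : ∀ k : ℕ, y * x ^ k = x ^ (2 * k) * y := by
    intro k
    induction k with
    | zero => simp
    | succ k ih =>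
      have e : 2 * (k + 1) = 2 * k + 2 := by ring
      rw [pow_succ, ← mul_assoc, ih, mul_assoc, hyx, ← mul_assoc, ← pow_add, e]
  have e6 : x ^ 6 = x := by
    have h : x ^ 6 = x ^ 5 * x := by rw [← pow_succ]
    rw [h, hx5, one_mul]
  have e8 : x ^ 8 = x ^ 3 := by
    have h : x ^ 8 = x ^ 5 * x ^ 3 := by rw [← pow_add]
    rw [h, hx5, one_mul]
  have yx2 : y * x ^ 2 = x ^ 4 * y := hyxk 2
  have yx3 : y * x ^ 3 = x * y := by
    have h := hyxk 3
    rw [show 2 * 3 = 6 from rfl, e6] at h; exact h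
  have yx4 : y * x ^ 4 = x ^ 3 * y := by
    have h := hyxk 4
    rw [show 2 * 4 = 8 from rfl, e8] at h; exact h
  obtain ⟨s, hs⟩ : ∃ s : D, s = x + x ^ 4 - x ^ 2 - x ^ 3 := ⟨_, rfl⟩
  obtain ⟨d1, hd1⟩ : ∃ d : D, d = x - x ^ 4 := ⟨_, rfl⟩
  obtain ⟨d2, hd2⟩ : ∃ d : D, d = x ^ 2 - x ^ 3 := ⟨_, rfl⟩
  have hss : s * s = 5 := by
    have hP := oct_poly x h1 ((X + X ^ 4 - X ^ 2 - X ^ 3) ^ 2 - 5)
      (X ^ 4 - 3 * X ^ 3 + X ^ 2 + 5 * X - 5) (by ring)
    simp only [map_sub, map_add, map_pow, Polynomial.aeval_X, map_ofNat] at hP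
    rw [hs, ← pow_two]; exact sub_eq_zero.1 hP
  have hdd : d1 * d1 + d2 * d2 = -5 := by
    have hP := oct_poly x h1 ((X - X ^ 4) ^ 2 + (X ^ 2 - X ^ 3) ^ 2 + 5)
      (X ^ 4 - X ^ 3 + X ^ 2 - 5 * X + 5) (by ring)
    simp only [map_sub, map_add, map_pow, Polynomial.aeval_X, map_ofNat] at hP
    rw [hd1, hd2, ← pow_two, ← pow_two]; exact eq_neg_of_add_eq_zero_left hP
  have hsx : Commute s x := by
    rw [hs]
    exact ((((Commute.refl x).add_left ((Commute.refl x).pow_left 4)).sub_left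
      ((Commute.refl x).pow_left 2)).sub_left ((Commute.refl x).pow_left 3))
  have hsd1 : s * d1 = d1 * s := by
    rw [hd1]; exact (hsx.sub_right (hsx.pow_right 4)).eq
  have hsd2 : s * d2 = d2 * s := by
    rw [hd2]; exact ((hsx.pow_right 2).sub_right (hsx.pow_right 3)).eq
  have hd12 : d1 * d2 = d2 * d1 := by
    have h1x : Commute d1 x := by
      rw [hd1]; exact (Commute.refl x).sub_left ((Commute.refl x).pow_left 4)
    rw [hd2]; exact ((h1x.pow_right 2).sub_right (h1x.pow_right 3)).eq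
  have hys : y * s = -(s * y) := by
    rw [hs]; simp only [mul_sub, mul_add, sub_mul, add_mul, hyx, yx2, yx3, yx4]; abel
  have hyd1 : y * d1 = d2 * y := by
    rw [hd1, hd2]; simp only [mul_sub, sub_mul, hyx, yx4]
  have hyd2 : y * d2 = -(d1 * y) := by
    rw [hd1, hd2]; simp only [mul_sub, sub_mul, yx2, yx3]; abel
  have hy5 : y ^ 5 = -y := by rw [pow_succ, hy4, neg_one_mul]
  obtain ⟨r, hr⟩ : ∃ r : D, r = y - y ^ 3 := ⟨_, rfl⟩
  obtain ⟨j, hj⟩ : ∃ j : D, j = d1 + d2 * (y * y) := ⟨_, rfl⟩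
  have hrr : r * r = 2 := by
    have e : r * r = y ^ 2 - y ^ 4 - y ^ 4 + y ^ 4 * y ^ 2 := by rw [hr]; noncomm_ring
    rw [e, hy4]
    have e2 : y ^ 2 - -1 - -1 + -1 * y ^ 2 = (1 + 1 : D) := by
      rw [neg_one_mul]; abel
    rw [e2]; norm_num
  have hy3s : y ^ 3 * s = -(s * y ^ 3) := by
    calc y ^ 3 * s = y * (y * (y * s)) := by noncomm_ring
      _ = y * (y * (-(s * y))) := by rw [hys]
      _ = -(y * (y * s) * y) := by noncomm_ring
      _ = -(y * (-(s * y)) * y) := by rw [hys]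
      _ = (y * s) * y * y := by noncomm_ring
      _ = -(s * y) * y * y := by rw [hys]
      _ = -(s * y ^ 3) := by noncomm_ring
  have hsr : s * r = -(r * s) := by
    rw [hr, mul_sub, sub_mul, hys, hy3s]; abel
  have hws : y * y * s = s * (y * y) := by
    rw [mul_assoc, hys, mul_neg, ← mul_assoc, hys, neg_mul, neg_neg, mul_assoc]
  have hsj : s * j = j * s := by
    rw [hj]
    calc s * (d1 + d2 * (y * y)) = s * d1 + s * d2 * (y * y) := by noncomm_ring
      _ = d1 * s + d2 * s * (y * y) := by rw [hsd1, hsd2]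
      _ = d1 * s + d2 * (s * (y * y)) := by noncomm_ring
      _ = d1 * s + d2 * (y * y * s) := by rw [hws]
      _ = (d1 + d2 * (y * y)) * s := by noncomm_ring
  have hwd1 : y * y * d1 = -(d1 * (y * y)) := by
    rw [mul_assoc, hyd1, ← mul_assoc, hyd2, neg_mul, mul_assoc]
  have hwd2 : y * y * d2 = -(d2 * (y * y)) := by
    rw [mul_assoc, hyd2, mul_neg, ← mul_assoc, hyd1, mul_assoc]
  have hww : y * y * (y * y) = -1 := by rw [← hy4]; noncomm_ring
  have hjj : j * j = -5 := by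
    have e : j * j = d1 * d1 + d1 * d2 * (y * y) + d2 * (y * y * d1)
        + d2 * (y * y * d2) * (y * y) := by
      rw [hj]; noncomm_ring
    rw [e, hwd1, hwd2, ← hdd, hd12]
    have e2 : d2 * -(d2 * (y * y)) * (y * y) = -(d2 * d2 * (y * y * (y * y))) := by
      noncomm_ring
    rw [e2, hww]; noncomm_ring
  have hyj : y * j = -(j * y ^ 3) := by
    have e1 : y * j = y * d1 + y * d2 * (y * y) := by rw [hj]; noncomm_ring
    have e2 : j * y ^ 3 = d1 * y ^ 3 + d2 * y ^ 5 := by rw [hj]; noncomm_ring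
    rw [e1, e2, hyd1, hyd2, hy5]; noncomm_ring
  have hy3j : y ^ 3 * j = -(j * y) := by
    have e1 : y ^ 3 * j = y * (y * y * d1) + y * (y * y * d2) * (y * y) := by
      rw [hj]; noncomm_ring
    have e2 : j * y = d1 * y + d2 * y ^ 3 := by rw [hj]; noncomm_ring
    rw [e1, e2, hwd1, hwd2]
    have e3 : y * -(d1 * (y * y)) = -(y * d1 * (y * y)) := by noncomm_ring
    have e4 : y * -(d2 * (y * y)) * (y * y) = -(y * d2 * y ^ 4) := by noncomm_ring
    rw [e3, e4, hyd1, hyd2, hy4]; noncomm_ring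
  have hrj : r * j = j * r := by
    rw [hr, sub_mul, mul_sub, hyj, hy3j]; abel
  exact oct_final s r j hss hrr hsr hjj hsj hrj

end Cfsg.Agent.Lib.Helper59.Ami
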